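import Mathlib
import Cfsg.Agent.Lib.Helper85.KS12.S2949Core
import Cfsg.Agent.Lib.Helper16.BG.NilHall

/-!
KS12 project, package FF3 (generation), reduction by Frattini's argument (helper85):
if `T` is a Sylow 2-subgroup of `L` and every `L`-conjugate of `J(T)` lies in `X ⊔ D` with
`D ≤ N_L(J(T))`, then `L ≤ X ⊔ N_L(J(T))`.  With `X` the join of the `J(T)`-components of `L`
this is `GenByJComponents T L`.
-/

set_option autoImplicit false

namespace Cfsg.Agent.Lib.Helper85.KS12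

open Cfsg

variable {G : Type*} [Group G]

/-- If `J(T) ≤ T^g` then `J(T^g) = J(T)`. -/
theorem thompsonSubgroupOf_conj_eq_of_le [Finite G] {p : ℕ} (T : Subgroup G) (g : G)
    (h : thompsonSubgroupOf p T ≤ T.map (MulAut.conj g).toMonoidHom) :
    thompsonSubgroupOf p (T.map (MulAut.conj g).toMonoidHom) = thompsonSubgroupOf p T := by
  have hmap := Cfsg.Agent.Lib.Helper11.thompsonSubgroupOf_map p (MulAut.conj g).toMonoidHom
    (MulAut.conj g).injective T
  have hle : thompsonSubgroupOf p T ≤ thompsonSubgroupOf p (T.map (MulAut.conj g).toMonoidHom) := by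
    conv_lhs => rw [Cfsg.Agent.Lib.Helper11.thompsonSubgroupOf_eq]
    rw [sSup_le_iff]
    intro A hA
    apply Cfsg.Agent.Lib.Helper11.le_thompsonSubgroupOf
    refine ⟨(Cfsg.Agent.Lib.Helper11.le_thompsonSubgroupOf hA).trans h, hA.2.1, ?_⟩
    intro B hB hBe
    have hB' : B.map (MulAut.conj g⁻¹).toMonoidHom ≤ T := by
      rintro x ⟨b, hb, rfl⟩
      obtain ⟨t, ht, rfl⟩ := hB hb
      have : (MulAut.conj g⁻¹).toMonoidHom ((MulAut.conj g).toMonoidHom t) = t := by
        simp [MulAut.conj_apply, mul_assoc]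
      rw [this]; exact ht
    have h1 := hA.2.2 _ hB' (Cfsg.Agent.Lib.Helper11.elemAb_map _ hBe)
    rwa [Subgroup.card_map_of_injective (MulAut.conj g⁻¹).injective] at h1
  have hcard : Nat.card (thompsonSubgroupOf p (T.map (MulAut.conj g).toMonoidHom)) =
      Nat.card (thompsonSubgroupOf p T) := by
    rw [hmap, Subgroup.card_map_of_injective (MulAut.conj g).injective]
  exact (Subgroup.eq_of_le_of_card_ge hle hcard.le).symm

/-- Frattini's argument for the Thompson subgroup: if every `L`-conjugate of `J(T)` lies in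
`X ⊔ D`, where `D ≤ N_L(J(T))` and `T` is a Sylow 2-subgroup of `L`, then
`L ≤ X ⊔ N_L(J(T))`. -/
theorem le_sup_normalizer_thompson [Finite G] {T L X D : Subgroup G} (hT : IsSylowTwoIn T L)
    (hD : D ≤ L ⊓ Subgroup.normalizer (thompsonSubgroupOf 2 T : Set G))
    (h : ∀ l ∈ L, (thompsonSubgroupOf 2 T).map (MulAut.conj l).toMonoidHom ≤ X ⊔ D) :
    L ≤ X ⊔ (L ⊓ Subgroup.normalizer (thompsonSubgroupOf 2 T : Set G)) := by
  haveI : Fact (Nat.Prime 2) := ⟨Nat.prime_two⟩
  obtain ⟨hTL, hT2, hodd⟩ := hT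
  have hJT : thompsonSubgroupOf 2 T ≤ T := Cfsg.Agent.Lib.Helper11.thompsonSubgroupOf_le 2 T
  have hJL : thompsonSubgroupOf 2 T ≤ L := hJT.trans hTL
  have hJ2 : IsPGroup 2 (thompsonSubgroupOf 2 T) := hT2.to_le hJT
  -- the normal closure of `J(T)` in `L`
  obtain ⟨N', hN'⟩ : ∃ N' : Subgroup L, N' =
      Subgroup.normalClosure (((thompsonSubgroupOf 2 T).subgroupOf L : Subgroup L) : Set L) :=
    ⟨_, rfl⟩
  haveI hN'n : N'.Normal := by rw [hN']; exact Subgroup.normalClosure_normal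
  have hJN : (thompsonSubgroupOf 2 T).subgroupOf L ≤ N' := by
    rw [hN']; exact Subgroup.le_normalClosure
  have hN'le : N'.map L.subtype ≤ X ⊔ D := by
    rw [Subgroup.map_le_iff_le_comap, hN']
    unfold Subgroup.normalClosure
    rw [Subgroup.closure_le]
    intro a ha
    obtain ⟨b, hb, hconj⟩ := Group.mem_conjugatesOfSet_iff.mp ha
    obtain ⟨c, hc⟩ := isConj_iff.mp hconj
    show (a : G) ∈ X ⊔ D
    have h1 : (a : G) = (c : G) * (b : G) * (c : G)⁻¹ := by rw [← hc]; simp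
    rw [h1]
    exact h c c.2 ⟨(b : G), Subgroup.mem_subgroupOf.mp hb, by simp [MulAut.conj_apply]⟩
  -- a Sylow 2-subgroup of the normal closure containing `J(T)`
  have hJ'' : IsPGroup 2 (((thompsonSubgroupOf 2 T).subgroupOf L).subgroupOf N') :=
    (hJ2.comap_subtype).comap_subtype
  obtain ⟨P, hP⟩ := hJ''.exists_le_sylow
  have hfr := Sylow.normalizer_sup_eq_top P
  obtain ⟨PL, hPL⟩ : ∃ PL : Subgroup L, PL = (P : Subgroup N').map N'.subtype := ⟨_, rfl⟩
  rw [← hPL] at hfr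
  obtain ⟨PG, hPG⟩ : ∃ PG : Subgroup G, PG = PL.map L.subtype := ⟨_, rfl⟩
  have hPG2 : IsPGroup 2 PG := by
    rw [hPG, hPL]; exact (P.isPGroup'.map _).map _
  have hPGL : PG ≤ L := by rw [hPG]; exact Subgroup.map_subtype_le _
  have hJPG : thompsonSubgroupOf 2 T ≤ PG := by
    intro x hx
    rw [hPG, hPL]
    have hx1 : (⟨x, hJL hx⟩ : L) ∈ (thompsonSubgroupOf 2 T).subgroupOf L :=
      Subgroup.mem_subgroupOf.mpr hx
    have hx2 : (⟨⟨x, hJL hx⟩, hJN hx1⟩ : N') ∈
        ((thompsonSubgroupOf 2 T).subgroupOf L).subgroupOf N' := Subgroup.mem_subgroupOf.mpr hx1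
    exact ⟨⟨x, hJL hx⟩, ⟨⟨⟨x, hJL hx⟩, hJN hx1⟩, hP hx2, rfl⟩, rfl⟩
  -- `PG` lies in a conjugate of `T`
  have hsyl : ¬ 2 ∣ T.relIndex L := by
    intro h2
    exact (Nat.not_even_iff_odd.mpr hodd) (even_iff_two_dvd.mpr h2)
  obtain ⟨d, hd, hdP⟩ := Cfsg.Agent.Lib.Helper16.BG.rel_sylow_conj L PG T hPGL hPG2 hT2 hsyl
  have hPGT : PG ≤ T.map (MulAut.conj d⁻¹).toMonoidHom := by
    intro v hv
    refine ⟨d * v * d⁻¹, hdP v hv, ?_⟩
    simp [MulAut.conj_apply, mul_assoc]
  have hJ1 : thompsonSubgroupOf 2 (T.map (MulAut.conj d⁻¹).toMonoidHom) =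
      thompsonSubgroupOf 2 T :=
    thompsonSubgroupOf_conj_eq_of_le T d⁻¹ (hJPG.trans hPGT)
  have hJ2' : thompsonSubgroupOf 2 PG = thompsonSubgroupOf 2 T := by
    rw [← hJ1]
    apply Cfsg.Agent.Lib.Helper11.thompsonSubgroupOf_eq_of_le hPGT
    rw [hJ1]; exact hJPG
  -- the normalizer of `PL` maps into `L ⊓ N_G(J(T))`
  have hnorm : (Subgroup.normalizer (PL : Set L)).map L.subtype ≤
      L ⊓ Subgroup.normalizer (thompsonSubgroupOf 2 T : Set G) := by
    rintro _ ⟨n, hn, rfl⟩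
    refine Subgroup.mem_inf.mpr ⟨n.2, ?_⟩
    have h1 : (n : G) ∈ Subgroup.normalizer (PG : Set G) := by
      replace hn : n ∈ Subgroup.normalizer (PL : Set L) := hn
      rw [Subgroup.mem_normalizer_iff] at hn ⊢
      intro x
      rw [hPG]
      constructor
      · rintro ⟨y, hy, rfl⟩
        exact ⟨n * y * n⁻¹, (hn y).mp hy, by simp⟩
      · rintro ⟨z, hz, hzx⟩
        refine ⟨n⁻¹ * z * n, (hn _).mpr ?_, ?_⟩
        · have h5 : n * (n⁻¹ * z * n) * n⁻¹ = z := by group
          rw [h5]; exact hz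
        · have h6 : ((n⁻¹ * z * n : L) : G) = (n : G)⁻¹ * (z : G) * (n : G) := by simp
          show ((n⁻¹ * z * n : L) : G) = x
          rw [h6]
          have h7 : (z : G) = (n : G) * x * (n : G)⁻¹ := hzx
          rw [h7]; group
    rw [← hJ2']
    exact Cfsg.Agent.Lib.Helper11.normalizer_le_normalizer_thompsonSubgroupOf 2 PG h1
  -- conclusion
  intro l hl
  have hmem : (⟨l, hl⟩ : L) ∈ Subgroup.normalizer (PL : Set L) ⊔ N' := by
    rw [hfr]; trivial
  have h2 : l ∈ (Subgroup.normalizer (PL : Set L) ⊔ N').map L.subtype := ⟨⟨l, hl⟩, hmem, rfl⟩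
  rw [Subgroup.map_sup] at h2
  have h3 : (Subgroup.normalizer (PL : Set L)).map L.subtype ⊔ N'.map L.subtype ≤
      X ⊔ (L ⊓ Subgroup.normalizer (thompsonSubgroupOf 2 T : Set G)) := by
    apply sup_le
    · exact hnorm.trans le_sup_right
    · exact hN'le.trans (sup_le le_sup_left (hD.trans le_sup_right))
  exact h3 h2

/-- Package FF3 from its "conjugates" form: if every `L`-conjugate of `J(T)` lies in the join of
the `J(T)`-components of `L` with a subgroup `D ≤ N_L(J(T))` (for instance `D = C_L(V) ⊔ T`),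
then `L` is generated by its `J(T)`-components and `N_L(J(T))`. -/
theorem genByJComponents_of_conj [Finite G] {T L D : Subgroup G} (hT : IsSylowTwoIn T L)
    (hD : D ≤ L ⊓ Subgroup.normalizer (thompsonSubgroupOf 2 T : Set G))
    (h : ∀ l ∈ L, (thompsonSubgroupOf 2 T).map (MulAut.conj l).toMonoidHom ≤
      sSup {K : Subgroup G | IsJComponent T K ∧ K ≤ L} ⊔ D) :
    GenByJComponents T L :=
  le_sup_normalizer_thompson hT hD h

end Cfsg.Agent.Lib.Helper85.KS12
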