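import Mathlib
import Cfsg.Agent.Lib.Helper85.KS12.GenFrattini

/-!
KS12 project: the Thompson subgroup of 2-subgroups of `L` containing `J(T)`, `T` a Sylow
2-subgroup of `L`; condition (2) of `IsJComponent` is automatic inside `L`.  (helper85)
-/

set_option autoImplicit false

namespace Cfsg.Agent.Lib.Helper85.KS12

open Cfsg

variable {G : Type*} [Group G]

/-- If `T` is a Sylow 2-subgroup of `L` and `P ≤ L` is a 2-subgroup containing `J(T)`, then
`J(P) = J(T)`. -/
theorem thompsonSubgroupOf_eq_of_isSylowTwoIn [Finite G] {T L P : Subgroup G}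
    (hT : IsSylowTwoIn T L) (hPL : P ≤ L) (hP2 : IsPGroup 2 P)
    (hJP : thompsonSubgroupOf 2 T ≤ P) : thompsonSubgroupOf 2 P = thompsonSubgroupOf 2 T := by
  haveI : Fact (Nat.Prime 2) := ⟨Nat.prime_two⟩
  obtain ⟨hTL, hT2, hodd⟩ := hT
  have hsyl : ¬ 2 ∣ T.relIndex L := by
    intro h2
    exact (Nat.not_even_iff_odd.mpr hodd) (even_iff_two_dvd.mpr h2)
  obtain ⟨d, hd, hdP⟩ := Cfsg.Agent.Lib.Helper16.BG.rel_sylow_conj L P T hPL hP2 hT2 hsyl
  have hPT : P ≤ T.map (MulAut.conj d⁻¹).toMonoidHom := by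
    intro v hv
    refine ⟨d * v * d⁻¹, hdP v hv, ?_⟩
    simp [MulAut.conj_apply, mul_assoc]
  have hJ1 : thompsonSubgroupOf 2 (T.map (MulAut.conj d⁻¹).toMonoidHom) =
      thompsonSubgroupOf 2 T :=
    thompsonSubgroupOf_conj_eq_of_le T d⁻¹ (hJP.trans hPT)
  rw [← hJ1]
  apply Cfsg.Agent.Lib.Helper11.thompsonSubgroupOf_eq_of_le hPT
  rw [hJ1]; exact hJP

/-- Condition (2) of `IsJComponent T K` holds for every `K ≤ L` when `T` is a Sylow 2-subgroup
of `L`. -/
theorem jComponent_cond2_of_le [Finite G] {T L K : Subgroup G} (hT : IsSylowTwoIn T L)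
    (hKL : K ≤ L) :
    ∀ S : Subgroup G, IsSylowTwoIn S (K ⊔ thompsonSubgroupOf 2 T) → thompsonSubgroupOf 2 T ≤ S →
      thompsonSubgroupOf 2 S = thompsonSubgroupOf 2 T := by
  intro S hS hJS
  have hJL : thompsonSubgroupOf 2 T ≤ L :=
    (Cfsg.Agent.Lib.Helper11.thompsonSubgroupOf_le 2 T).trans hT.1
  exact thompsonSubgroupOf_eq_of_isSylowTwoIn hT (hS.1.trans (sup_le hKL hJL)) hS.2.1 hJS

/-- `IsJComponent T K` only depends on `J(T)`. -/
theorem isJComponent_congr {T T' K : Subgroup G}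
    (h : thompsonSubgroupOf 2 T' = thompsonSubgroupOf 2 T) (hK : IsJComponent T K) :
    IsJComponent T' K := by
  unfold IsJComponent at hK ⊢
  rw [h]; exact hK

/-- `jComponentsZero T` only depends on `J(T)`. -/
theorem jComponentsZero_congr {T T' : Subgroup G}
    (h : thompsonSubgroupOf 2 T' = thompsonSubgroupOf 2 T) :
    jComponentsZero T' = jComponentsZero T := by
  unfold jComponentsZero IsJComponent
  rw [h]

end Cfsg.Agent.Lib.Helper85.KS12
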