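import Mathlib
import Cfsg.Agent.S2941
import Cfsg.Agent.Lib.Helper85.KS12.S2949Core
import Cfsg.Agent.Lib.Helper11.ThompsonSylow
import Cfsg.Agent.Lib.Helper47.Large

/-!
Kurzweil–Stellmacher chapter 12 cluster, package "hComm": two distinct `J(T)`-components `K₁, K₂`
of `L ∈ jOvergroups T` satisfy `[W_{K₁}, K₂] = 1`, derived from three facts of the packages P-Z and
P-FF about `V = Ω₁(Z(O₂(L)))` and `C = C_L(V)`:
`C ≤ N(J(T))`, `V ≤ J(T)` and `[K₁, K₂] ≤ C` for all `J(T)`-components of `L` (equal ones allowed).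
By-products: `O₂(K) ≤ C`, `[V, K] = W_K`, and `K₂ ≤ K₁ C → K₂ ≤ K₁`.  (helper85)
-/

set_option autoImplicit false

namespace Cfsg.Agent.Lib.Helper85.KS12

open Cfsg
open scoped commutatorElement

section AbstractAdd

variable {A : Type*} [AddCommGroup A]

/-- Coprime-action fact in characteristic 2 for an operator of order dividing 3:
`C_A(φ) ∩ (φ - 1)A = 0`. -/
theorem add_fix_comm_eq (h2 : ∀ a : A, a + a = 0) (φ : A →+ A) (h3 : ∀ a, φ (φ (φ a)) = a)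
    (a : A) (h : φ (φ a - a) = φ a - a) : φ a = a := by
  rw [map_sub] at h
  have h4 : φ (φ a) = a := by
    have e1 := h2 (φ a)
    have e2 := h2 a
    have : φ (φ a) = (φ (φ a) - φ a) + φ a := by abel
    rw [this, h]
    have : φ a - a + φ a = (φ a + φ a) - (a + a) + a := by abel
    rw [this, e1, e2]; abel
  have h5 := h3 a
  rw [h4] at h5
  exact h5

theorem add_inj_of_cube (φ : A →+ A) (h3 : ∀ a, φ (φ (φ a)) = a) {a : A} (h : φ a = 0) : a = 0 := by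
  have := h3 a
  rw [h, map_zero, map_zero] at this
  exact this.symm

/-- If `φ` (of order dividing 3) moves `A` into a four-set `W` and fixes a nonzero point of `W`,
then `φ` is the identity. -/
theorem add_fix_imp_id (h2 : ∀ a : A, a + a = 0) (W : Set A)
    (hWadd : ∀ a b, a ∈ W → b ∈ W → a + b ∈ W)
    (hW4 : ∀ s t u : A, s ∈ W → t ∈ W → u ∈ W → s ≠ 0 → t ≠ 0 → u ≠ 0 → s ≠ t → s ≠ u → t ≠ u →
      ∀ w ∈ W, w = 0 ∨ w = s ∨ w = t ∨ w = u)
    (φ : A →+ A) (h3 : ∀ a, φ (φ (φ a)) = a) (hφW : ∀ a, φ a - a ∈ W)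
    (w0 : A) (hw0 : w0 ∈ W) (hw0' : w0 ≠ 0) (hfix : φ w0 = w0) : ∀ a, φ a = a := by
  intro a
  by_contra hne
  have hy : φ a - a ∈ W := hφW a
  have hy0 : φ a - a ≠ 0 := fun h => hne (sub_eq_zero.mp h)
  set y := φ a - a with hydef
  have hy' : φ y ∈ W := by
    have := hWadd _ _ (hφW y) hy
    rwa [sub_add_cancel] at this
  have hyy' : φ y ≠ y := fun h => hne (add_fix_comm_eq h2 φ h3 a h)
  have hy'0 : φ y ≠ 0 := fun h => hy0 (add_inj_of_cube φ h3 h)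
  have hyw : y ≠ w0 := by
    intro h; rw [h] at hyy'; exact hyy' hfix
  have hy'w : φ y ≠ w0 := by
    intro h
    have h6 := h3 y
    rw [h, hfix, hfix] at h6
    exact hyw h6.symm
  have hsum : y + φ y ∈ W := hWadd _ _ hy hy'
  rcases hW4 w0 y (φ y) hw0 hy hy' hw0' hy0 hy'0 (Ne.symm hyw) (Ne.symm hy'w) (Ne.symm hyy')
    (y + φ y) hsum with h | h | h | h
  · -- y + φ y = 0
    apply hyy'
    have e := h2 y
    have : φ y = (y + φ y) - (y + y) + y := by abel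
    rw [this, h, e]; abel
  · -- y + φ y = w0
    have h7 : φ (y + φ y) = y + φ y := by rw [h]; exact hfix
    rw [map_add] at h7
    have h8 : φ (φ y) = y := by
      have : φ (φ y) = (φ y + φ (φ y)) - φ y := by abel
      rw [this, h7]; abel
    have h9 := h3 y
    rw [h8] at h9
    exact hyy' h9
  · -- y + φ y = y
    apply hy'0
    have : φ y = (y + φ y) - y := by abel
    rw [this, h]; abel
  · apply hy0
    have : y = (y + φ y) - φ y := by abel
    rw [this, h]; abel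

/-- Two commuting operators of order dividing 3 moving `A` into the same four-set and both
nontrivial are equal or inverse to each other. -/
theorem add_dichotomy (h2 : ∀ a : A, a + a = 0) (W : Set A)
    (hWadd : ∀ a b, a ∈ W → b ∈ W → a + b ∈ W)
    (hW4 : ∀ s t u : A, s ∈ W → t ∈ W → u ∈ W → s ≠ 0 → t ≠ 0 → u ≠ 0 → s ≠ t → s ≠ u → t ≠ u →
      ∀ w ∈ W, w = 0 ∨ w = s ∨ w = t ∨ w = u)
    (φ ψ : A →+ A) (h3φ : ∀ a, φ (φ (φ a)) = a) (h3ψ : ∀ a, ψ (ψ (ψ a)) = a)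
    (hcomm : ∀ a, ψ (φ a) = φ (ψ a))
    (hφW : ∀ a, φ a - a ∈ W) (hψW : ∀ a, ψ a - a ∈ W)
    (hφ1 : ∃ a, φ a ≠ a) (hψ1 : ∃ a, ψ a ≠ a) :
    (∀ a, ψ a = φ a) ∨ (∀ a, ψ (φ a) = a) := by
  -- fixed-point-freeness
  have hfφ : ∀ w ∈ W, w ≠ 0 → φ w ≠ w := by
    intro w hw hw0 hfix
    obtain ⟨a, ha⟩ := hφ1
    exact ha (add_fix_imp_id h2 W hWadd hW4 φ h3φ hφW w hw hw0 hfix a)
  have hfψ : ∀ w ∈ W, w ≠ 0 → ψ w ≠ w := by
    intro w hw hw0 hfix
    obtain ⟨a, ha⟩ := hψ1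
    exact ha (add_fix_imp_id h2 W hWadd hW4 ψ h3ψ hψW w hw hw0 hfix a)
  have hφmem : ∀ w ∈ W, φ w ∈ W := by
    intro w hw
    have := hWadd _ _ (hφW w) hw
    rwa [sub_add_cancel] at this
  have hψmem : ∀ w ∈ W, ψ w ∈ W := by
    intro w hw
    have := hWadd _ _ (hψW w) hw
    rwa [sub_add_cancel] at this
  obtain ⟨a0, ha0⟩ := hφ1
  set w := φ a0 - a0 with hwdef
  have hw : w ∈ W := hφW a0
  have hw0 : w ≠ 0 := fun h => ha0 (sub_eq_zero.mp h)
  have hw1 : φ w ∈ W := hφmem w hw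
  have hw2 : φ (φ w) ∈ W := hφmem _ hw1
  have hw10 : φ w ≠ 0 := fun h => hw0 (add_inj_of_cube φ h3φ h)
  have hw20 : φ (φ w) ≠ 0 := fun h => hw10 (add_inj_of_cube φ h3φ h)
  have hww1 : w ≠ φ w := fun h => hfφ w hw hw0 h.symm
  have hw1w2 : φ w ≠ φ (φ w) := fun h => hfφ _ hw1 hw10 h.symm
  have hww2 : w ≠ φ (φ w) := by
    intro h
    have h6 := h3φ w
    rw [← h] at h6
    exact hww1 h6.symm
  have hu : ψ w ∈ W := hψmem w hw
  have hu0 : ψ w ≠ 0 := fun h => hw0 (add_inj_of_cube ψ h3ψ h)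
  have huw : ψ w ≠ w := hfψ w hw hw0
  rcases hW4 w (φ w) (φ (φ w)) hw hw1 hw2 hw0 hw10 hw20 hww1 hww2 hw1w2 (ψ w) hu with h | h | h | h
  · exact absurd h hu0
  · exact absurd h huw
  · -- ψ w = φ w : θ = φ ∘ φ ∘ ψ fixes w
    left
    have key := add_fix_imp_id h2 W hWadd hW4 (φ.comp (φ.comp ψ))
      (by
        intro a
        simp only [AddMonoidHom.comp_apply, hcomm, h3ψ, h3φ])
      (by
        intro a
        simp only [AddMonoidHom.comp_apply]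
        have e1 := hφW (φ (ψ a))
        have e2 := hφW (ψ a)
        have e3 := hψW a
        have := hWadd _ _ (hWadd _ _ e1 e2) e3
        have e4 : φ (φ (ψ a)) - φ (ψ a) + (φ (ψ a) - ψ a) + (ψ a - a) = φ (φ (ψ a)) - a := by abel
        rwa [e4] at this)
      w hw hw0
      (by
        simp only [AddMonoidHom.comp_apply]
        rw [h, h3φ])
    intro a
    have h7 := key a
    simp only [AddMonoidHom.comp_apply] at h7
    have h8 := h3φ (ψ a)
    rw [h7] at h8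
    exact h8.symm
  · -- ψ w = φ (φ w) : θ = φ ∘ ψ fixes w
    right
    have key := add_fix_imp_id h2 W hWadd hW4 (φ.comp ψ)
      (by
        intro a
        simp only [AddMonoidHom.comp_apply, hcomm, h3ψ, h3φ])
      (by
        intro a
        simp only [AddMonoidHom.comp_apply]
        have e2 := hφW (ψ a)
        have e3 := hψW a
        have := hWadd _ _ e2 e3
        have e4 : (φ (ψ a) - ψ a) + (ψ a - a) = φ (ψ a) - a := by abel
        rwa [e4] at this)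
      w hw hw0
      (by
        simp only [AddMonoidHom.comp_apply]
        rw [h, h3φ])
    intro a
    have h7 := key a
    simp only [AddMonoidHom.comp_apply] at h7
    rw [hcomm]; exact h7

end AbstractAdd


section Bridge

variable {G : Type*} [Group G]

/-- Conjugation by an element stabilizing `V`, as an endomorphism of `V`. -/
def conjHom (V : Subgroup G) (x : G) (hx : ∀ v ∈ V, x * v * x⁻¹ ∈ V) : V →* V where
  toFun v := ⟨x * v * x⁻¹, hx v v.2⟩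
  map_one' := by ext; simp
  map_mul' a b := by ext; simp [mul_assoc]

theorem conj_dichotomy {V W : Subgroup G} (hVc : ∀ a ∈ V, ∀ b ∈ V, a * b = b * a)
    (hV2 : ∀ a ∈ V, a * a = 1)
    (hW4 : ∀ s t u : G, s ∈ W → t ∈ W → u ∈ W → s ≠ 1 → t ≠ 1 → u ≠ 1 → s ≠ t → s ≠ u → t ≠ u →
      ∀ w ∈ W, w = 1 ∨ w = s ∨ w = t ∨ w = u)
    {k g : G} (hk : ∀ v ∈ V, k * v * k⁻¹ ∈ V) (hg : ∀ v ∈ V, g * v * g⁻¹ ∈ V)
    (hk3 : ∀ v ∈ V, k * (k * (k * v * k⁻¹) * k⁻¹) * k⁻¹ = v)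
    (hg3 : ∀ v ∈ V, g * (g * (g * v * g⁻¹) * g⁻¹) * g⁻¹ = v)
    (hcomm : ∀ v ∈ V, g * (k * v * k⁻¹) * g⁻¹ = k * (g * v * g⁻¹) * k⁻¹)
    (hkW : ∀ v ∈ V, k * v * k⁻¹ * v⁻¹ ∈ W) (hgW : ∀ v ∈ V, g * v * g⁻¹ * v⁻¹ ∈ W)
    (hk1 : ∃ v ∈ V, k * v * k⁻¹ ≠ v) (hg1 : ∃ v ∈ V, g * v * g⁻¹ ≠ v) :
    (∀ v ∈ V, g * v * g⁻¹ = k * v * k⁻¹) ∨ (∀ v ∈ V, g * (k * v * k⁻¹) * g⁻¹ = v) := by
  let _ : CommGroup V :=
    { (inferInstance : Group V) with mul_comm := fun a b => Subtype.ext (hVc a a.2 b b.2) }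
  have key := add_dichotomy (A := Additive V)
    (fun a => Subtype.ext (hV2 _ (Additive.toMul a).2))
    {a | ((Additive.toMul a : V) : G) ∈ W}
    (fun a b ha hb => W.mul_mem ha hb)
    (fun s t u hs ht hu hs0 ht0 hu0 hst hsu htu w hw => by
      have := hW4 _ _ _ hs ht hu (fun h => hs0 (Subtype.ext h)) (fun h => ht0 (Subtype.ext h))
        (fun h => hu0 (Subtype.ext h)) (fun h => hst (Subtype.ext h)) (fun h => hsu (Subtype.ext h))
        (fun h => htu (Subtype.ext h)) _ hw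
      rcases this with h | h | h | h
      · exact Or.inl (Subtype.ext h)
      · exact Or.inr (Or.inl (Subtype.ext h))
      · exact Or.inr (Or.inr (Or.inl (Subtype.ext h)))
      · exact Or.inr (Or.inr (Or.inr (Subtype.ext h))))
    (MonoidHom.toAdditive (conjHom V k hk)) (MonoidHom.toAdditive (conjHom V g hg))
    (fun a => Subtype.ext (hk3 _ (Additive.toMul a).2))
    (fun a => Subtype.ext (hg3 _ (Additive.toMul a).2))
    (fun a => Subtype.ext (hcomm _ (Additive.toMul a).2))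
    (fun a => by
      have h := hkW _ (Additive.toMul a).2
      rw [← div_eq_mul_inv] at h
      exact h)
    (fun a => by
      have h := hgW _ (Additive.toMul a).2
      rw [← div_eq_mul_inv] at h
      exact h)
    (by
      obtain ⟨v, hv, hne⟩ := hk1
      exact ⟨Additive.ofMul ⟨v, hv⟩, fun h => hne (congrArg Subtype.val h)⟩)
    (by
      obtain ⟨v, hv, hne⟩ := hg1
      exact ⟨Additive.ofMul ⟨v, hv⟩, fun h => hne (congrArg Subtype.val h)⟩)
  rcases key with h | h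
  · left
    intro v hv
    exact congrArg Subtype.val (h (Additive.ofMul ⟨v, hv⟩))
  · right
    intro v hv
    exact congrArg Subtype.val (h (Additive.ofMul ⟨v, hv⟩))


/-- `C_V(x) ∩ [V, x] = 1` when `x³` centralizes the elementary abelian 2-group `V`. -/
theorem conj_fix_comm_eq {V : Subgroup G} (hVc : ∀ a ∈ V, ∀ b ∈ V, a * b = b * a)
    (hV2 : ∀ a ∈ V, a * a = 1) {x : G} (hx : ∀ v ∈ V, x * v * x⁻¹ ∈ V)
    (hx3 : ∀ v ∈ V, x * (x * (x * v * x⁻¹) * x⁻¹) * x⁻¹ = v) {v : G} (hv : v ∈ V)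
    (h : x * (x * v * x⁻¹ * v⁻¹) * x⁻¹ = x * v * x⁻¹ * v⁻¹) : x * v * x⁻¹ = v := by
  let _ : CommGroup V :=
    { (inferInstance : Group V) with mul_comm := fun a b => Subtype.ext (hVc a a.2 b b.2) }
  have key := add_fix_comm_eq (A := Additive V)
    (fun a => Subtype.ext (hV2 _ (Additive.toMul a).2))
    (MonoidHom.toAdditive (conjHom V x hx))
    (fun a => Subtype.ext (hx3 _ (Additive.toMul a).2))
    (Additive.ofMul ⟨v, hv⟩)
    (Subtype.ext (by
      have h' : x * ((x * v * x⁻¹) / v) * x⁻¹ = (x * v * x⁻¹) / v := by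
        rw [div_eq_mul_inv]; exact h
      exact h'))
  exact congrArg Subtype.val key

/-- A subgroup of order 4 consists of `1` and any three distinct nontrivial elements of it. -/
theorem four_of_card {W : Subgroup G} (h4 : Nat.card W = 4) :
    ∀ s t u : G, s ∈ W → t ∈ W → u ∈ W → s ≠ 1 → t ≠ 1 → u ≠ 1 → s ≠ t → s ≠ u → t ≠ u →
      ∀ w ∈ W, w = 1 ∨ w = s ∨ w = t ∨ w = u := by
  intro s t u hs ht hu hs1 ht1 hu1 hst hsu htu w hw
  have : Finite W := Nat.finite_of_card_ne_zero (by rw [h4]; norm_num)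
  let f : Fin 4 → W := ![1, ⟨s, hs⟩, ⟨t, ht⟩, ⟨u, hu⟩]
  have hf : Function.Injective f := by
    intro i j hij
    fin_cases i <;> fin_cases j <;>
      first
      | rfl
      | (exfalso
         simp [f, Subtype.ext_iff] at hij
         first
         | exact hs1 hij | exact hs1 hij.symm | exact ht1 hij | exact ht1 hij.symm
         | exact hu1 hij | exact hu1 hij.symm | exact hst hij | exact hst hij.symm
         | exact hsu hij | exact hsu hij.symm | exact htu hij | exact htu hij.symm)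
  have hb := hf.bijective_of_nat_card_le (by rw [h4]; simp)
  obtain ⟨i, hi⟩ := hb.2 ⟨w, hw⟩
  have hi' := congrArg Subtype.val hi
  fin_cases i
  · left; simpa [f] using hi'.symm
  · right; left; simpa [f] using hi'.symm
  · right; right; left; simpa [f] using hi'.symm
  · right; right; right; simpa [f] using hi'.symm

/-- A subgroup of a four-group containing two distinct involutions is everything. -/
theorem eq_of_three {W Y : Subgroup G} (h4 : Nat.card W = 4) (hW2 : ∀ w ∈ W, w * w = 1)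
    (hYW : Y ≤ W) {a b : G} (ha : a ∈ Y) (hb : b ∈ Y) (ha1 : a ≠ 1) (hb1 : b ≠ 1) (hab : a ≠ b) :
    Y = W := by
  apply le_antisymm hYW
  intro w hw
  have hab1 : a * b ≠ 1 := by
    intro h
    have h2 := hW2 a (hYW ha)
    exact hab (mul_left_cancel (h2.trans h.symm))
  have haab : a ≠ a * b := by
    intro h
    apply hb1
    have : a * 1 = a * b := by rw [mul_one]; exact h
    exact (mul_left_cancel this).symm
  have hbab : b ≠ a * b := by
    intro h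
    apply ha1
    have : 1 * b = a * b := by rw [one_mul]; exact h
    exact (mul_right_cancel this).symm
  rcases four_of_card h4 a b (a * b) (hYW ha) (hYW hb) (W.mul_mem (hYW ha) (hYW hb)) ha1 hb1 hab1
    hab haab hbab w hw with h | h | h | h
  · rw [h]; exact Y.one_mem
  · rw [h]; exact ha
  · rw [h]; exact hb
  · rw [h]; exact Y.mul_mem ha hb

/-- `[k, a] = [k, [kak⁻¹, k]]` in an elementary abelian 2-group on which `k³` acts trivially. -/
theorem comm_eq_comm_comm {V : Subgroup G} (hVc : ∀ a ∈ V, ∀ b ∈ V, a * b = b * a)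
    (hV2 : ∀ a ∈ V, a * a = 1) {k : G} (hk : ∀ v ∈ V, k * v * k⁻¹ ∈ V)
    (hk3 : ∀ v ∈ V, k * (k * (k * v * k⁻¹) * k⁻¹) * k⁻¹ = v) {a : G} (ha : a ∈ V) :
    ⁅k, a⁆ = ⁅k, ⁅k * a * k⁻¹, k⁆⁆ := by
  have hb : k * a * k⁻¹ ∈ V := hk a ha
  have hc : k * (k * a * k⁻¹) * k⁻¹ ∈ V := hk _ hb
  have h3 := hk3 a ha
  have e1 : ⁅k, ⁅k * a * k⁻¹, k⁆⁆ =
      (k * (k * a * k⁻¹) * k⁻¹) * (k * (k * (k * a * k⁻¹) * k⁻¹) * k⁻¹)⁻¹ *
        ((k * (k * a * k⁻¹) * k⁻¹) * (k * a * k⁻¹)⁻¹) := by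
    simp only [commutatorElement_def]; group
  rw [e1, h3]
  have e2 : ⁅k, a⁆ = (k * a * k⁻¹) * a⁻¹ := by
    simp only [commutatorElement_def]
  rw [e2]
  generalize k * a * k⁻¹ = b at hb hc ⊢
  generalize k * b * k⁻¹ = c at hc ⊢
  have hai : a⁻¹ = a := inv_eq_of_mul_eq_one_left (hV2 a ha)
  have hbi : b⁻¹ = b := inv_eq_of_mul_eq_one_left (hV2 b hb)
  rw [hai, hbi]
  have hca : c * a = a * c := hVc c hc a ha
  have hcc : c * c = 1 := hV2 c hc
  have hba : b * a = a * b := hVc b hb a ha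
  calc b * a = a * b := hba
    _ = a * (c * c) * b := by rw [hcc, mul_one]
    _ = (a * c) * (c * b) := by group
    _ = c * a * (c * b) := by rw [hca]

/-- If `[g, K₁]` centralizes the abelian group `V` (normalized by `g` and `K₁`), then `g`
normalizes `[V, K₁]`. -/
theorem conj_comm_mem {V K₁ : Subgroup G} {g : G} (hgV : ∀ v ∈ V, g * v * g⁻¹ ∈ V)
    (hK₁V : ∀ k ∈ K₁, ∀ v ∈ V, k * v * k⁻¹ ∈ V)
    (hg : ∀ k ∈ K₁, g * k * g⁻¹ * k⁻¹ ∈ Subgroup.centralizer (V : Set G)) :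
    ∀ w ∈ ⁅V, K₁⁆, g * w * g⁻¹ ∈ ⁅V, K₁⁆ := by
  have hle : ⁅V, K₁⁆ ≤ (⁅V, K₁⁆).comap (MulAut.conj g).toMonoidHom := by
    rw [Subgroup.commutator_le]
    intro v hv k hk
    show g * ⁅v, k⁆ * g⁻¹ ∈ ⁅V, K₁⁆
    have hv' : g * v * g⁻¹ ∈ V := hgV v hv
    have hc := hg k hk
    have hz : ⁅g * v * g⁻¹, k⁆ ∈ V := by
      rw [commutatorElement_def]
      have h1 : k * (g * v * g⁻¹)⁻¹ * k⁻¹ ∈ V := hK₁V k hk _ (V.inv_mem hv')
      have h2 : g * v * g⁻¹ * k * (g * v * g⁻¹)⁻¹ * k⁻¹ =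
          (g * v * g⁻¹) * (k * (g * v * g⁻¹)⁻¹ * k⁻¹) := by group
      rw [h2]; exact V.mul_mem hv' h1
    have c1 := Subgroup.mem_centralizer_iff.mp hc _ hv'
    have c2 := Subgroup.mem_centralizer_iff.mp hc _ hz
    have e1 : g * ⁅v, k⁆ * g⁻¹ =
        ((g * v * g⁻¹) * (g * k * g⁻¹ * k⁻¹)) * k * (g * v * g⁻¹)⁻¹ * k⁻¹ * (g * k * g⁻¹ * k⁻¹)⁻¹ := by
      simp only [commutatorElement_def]; group
    have e2 : ∀ c v' : G, c * v' * k * v'⁻¹ * k⁻¹ * c⁻¹ = c * ⁅v', k⁆ * c⁻¹ := by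
      intro c v'; simp only [commutatorElement_def]; group
    have e3 : g * ⁅v, k⁆ * g⁻¹ = ⁅g * v * g⁻¹, k⁆ := by
      rw [e1, c1, e2, ← c2]; group
    rw [e3]
    exact Subgroup.commutator_mem_commutator hv' hk
  intro w hw
  exact hle hw

end Bridge


section Components

variable {G : Type*} [Group G]

theorem thompsonSubgroupOf_isPGroup {T : Subgroup G} (hT : IsPGroup 2 T) :
    IsPGroup 2 (thompsonSubgroupOf 2 T) := by
  unfold Cfsg.thompsonSubgroupOf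
  exact (hT.to_subgroup _).map _

/-- `J(T)` normalizes a `J(T)`-component. -/
theorem jcomp_conj_mem {T K : Subgroup G} (hKJ : ⁅K, thompsonSubgroupOf 2 T⁆ = K) :
    ∀ z ∈ thompsonSubgroupOf 2 T, ∀ w ∈ K, z * w * z⁻¹ ∈ K := by
  set J : Subgroup G := Cfsg.thompsonSubgroupOf 2 T with hJdef
  intro z hz
  have hle : ⁅K, J⁆ ≤ K.comap (MulAut.conj z).toMonoidHom := by
    rw [Subgroup.commutator_le]
    intro k hk j hj
    show z * ⁅k, j⁆ * z⁻¹ ∈ K
    have h1 : ⁅k, z⁆ ∈ K := by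
      rw [← hKJ]; exact Subgroup.commutator_mem_commutator hk hz
    have h2 : ⁅k, z * j⁆ ∈ K := by
      rw [← hKJ]; exact Subgroup.commutator_mem_commutator hk (J.mul_mem hz hj)
    have h3 : z * ⁅k, j⁆ * z⁻¹ = ⁅k, z⁆⁻¹ * ⁅k, z * j⁆ := by
      simp only [commutatorElement_def]; group
    rw [h3]
    exact K.mul_mem (K.inv_mem h1) h2
  intro w hw
  have : w ∈ ⁅K, J⁆ := by rw [hKJ]; exact hw
  exact hle this

/-- The elements of odd order of `⟨K, J(T)⟩` lie in the `J(T)`-component `K`. -/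
theorem jcomp_odd_mem {T K : Subgroup G} (hT : IsPGroup 2 T)
    (hKJ : ⁅K, thompsonSubgroupOf 2 T⁆ = K) :
    ∀ h ∈ K ⊔ thompsonSubgroupOf 2 T, Odd (orderOf h) → h ∈ K := by
  have hJ2 := thompsonSubgroupOf_isPGroup hT
  have hJK := jcomp_conj_mem hKJ
  set J : Subgroup G := Cfsg.thompsonSubgroupOf 2 T with hJdef
  have hsup : ∀ h ∈ K ⊔ J, ∃ j ∈ J, h * j ∈ K := by
    intro h hh
    rw [sup_eq_iSup] at hh
    refine Subgroup.iSup_induction (C := fun h => ∃ j ∈ J, h * j ∈ K) _ hh ?_ ?_ ?_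
    · intro b x hx
      cases b
      · exact ⟨x⁻¹, J.inv_mem (by simpa using hx), by simp⟩
      · exact ⟨1, J.one_mem, by simpa using hx⟩
    · exact ⟨1, J.one_mem, by simp⟩
    · rintro x y ⟨j₁, hj₁, hx⟩ ⟨j₂, hj₂, hy⟩
      refine ⟨j₂ * j₁, J.mul_mem hj₂ hj₁, ?_⟩
      have h1 : j₁⁻¹ * (y * j₂) * j₁⁻¹⁻¹ ∈ K := hJK _ (J.inv_mem hj₁) _ hy
      have h2 : x * y * (j₂ * j₁) = (x * j₁) * (j₁⁻¹ * (y * j₂) * j₁⁻¹⁻¹) := by group
      rw [h2]
      exact K.mul_mem hx h1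
  intro h hh hodd
  obtain ⟨j, hj, hk⟩ := hsup h hh
  have hpow : ∀ n : ℕ, ∃ j' ∈ J, h ^ n * j' ∈ K ∧ j' = j ^ n := by
    intro n
    induction n with
    | zero => exact ⟨1, J.one_mem, by simp, by simp⟩
    | succ n ih =>
      obtain ⟨j', hj', hmem, rfl⟩ := ih
      refine ⟨j ^ (n + 1), J.pow_mem hj _, ?_, rfl⟩
      have h1 : (j ^ n)⁻¹ * (h * j) * (j ^ n)⁻¹⁻¹ ∈ K := hJK _ (J.inv_mem (J.pow_mem hj n)) _ hk
      have h2 : h ^ (n + 1) * j ^ (n + 1) = (h ^ n * j ^ n) * ((j ^ n)⁻¹ * (h * j) * (j ^ n)⁻¹⁻¹) := by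
        rw [pow_succ, pow_succ]; group
      rw [h2]
      exact K.mul_mem hmem h1
  obtain ⟨a, ha⟩ := (IsPGroup.iff_orderOf.mp hJ2) ⟨j, hj⟩
  have hja : j ^ (2 ^ a) = 1 := by
    have h1 : (⟨j, hj⟩ : J) ^ (2 ^ a) = 1 := by rw [← ha]; exact pow_orderOf_eq_one _
    exact congrArg Subtype.val h1
  obtain ⟨j', -, hmem, rfl⟩ := hpow (2 ^ a)
  rw [hja, mul_one] at hmem
  have hcop : (2 ^ a).Coprime (orderOf h) :=
    Nat.Coprime.pow_left a (Nat.coprime_two_left.mpr hodd)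
  obtain ⟨m, hm⟩ := exists_pow_eq_self_of_coprime hcop
  rw [← hm]
  exact K.pow_mem hmem m

/-- `N(A) ∩ N(B) ≤ N(⟨A, B⟩)`, elementwise. -/
theorem mem_normalizer_sup {A B : Subgroup G} {c : G} (hA : c ∈ Subgroup.normalizer (A : Set G))
    (hB : c ∈ Subgroup.normalizer (B : Set G)) : c ∈ Subgroup.normalizer ((A ⊔ B : Subgroup G) : Set G) := by
  apply Cfsg.Agent.Lib.Helper11.mem_normalizer_of_map_conj_eq
  rw [Subgroup.map_sup, Cfsg.Agent.Lib.Helper11.map_conj_eq_of_mem_normalizer hA,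
    Cfsg.Agent.Lib.Helper11.map_conj_eq_of_mem_normalizer hB]

/-- If `K₂ ≤ K₁ C` for `J(T)`-components `K₁, K₂` and a subgroup `C` normalizing `J(T)` and `K₁`,
then `K₂ ≤ K₁`. -/
theorem jcomp_le_of_le_sup {T K₁ K₂ C : Subgroup G} (hT : IsPGroup 2 T)
    (hK₁ : IsJComponent T K₁) (hK₂ : IsJComponent T K₂)
    (hCJ : C ≤ Subgroup.normalizer (thompsonSubgroupOf 2 T : Set G))
    (hCK₁ : C ≤ Subgroup.normalizer (K₁ : Set G)) (h : K₂ ≤ K₁ ⊔ C) : K₂ ≤ K₁ := by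
  obtain ⟨-, hK₁J, -⟩ := hK₁
  obtain ⟨hK₂odd, hK₂J, -⟩ := hK₂
  set J : Subgroup G := Cfsg.thompsonSubgroupOf 2 T with hJdef
  have hN : K₁ ⊔ C ≤ Subgroup.normalizer ((K₁ ⊔ J : Subgroup G) : Set G) := by
    apply sup_le
    · exact le_sup_left.trans Subgroup.le_normalizer
    · intro c hc
      exact mem_normalizer_sup (hCK₁ hc) (hCJ hc)
  have h1 : K₂ ≤ K₁ ⊔ J := by
    calc K₂ = ⁅K₂, J⁆ := hK₂J.symm
      _ ≤ K₁ ⊔ J := by
        rw [Subgroup.commutator_le]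
        intro x hx j hj
        have hxN := hN (h hx)
        have hj' : j ∈ K₁ ⊔ J := Subgroup.mem_sup_right hj
        have h2 : x * j * x⁻¹ ∈ K₁ ⊔ J := (Subgroup.mem_normalizer_iff.mp hxN j).mp hj'
        rw [commutatorElement_def]
        exact Subgroup.mul_mem _ h2 (Subgroup.inv_mem _ hj')
  calc K₂ = Subgroup.closure {g : G | g ∈ K₂ ∧ Odd (orderOf g)} := hK₂odd.symm
    _ ≤ K₁ := by
      rw [Subgroup.closure_le]
      rintro g ⟨hg, hodd⟩
      exact jcomp_odd_mem hT hK₁J g (h1 hg) hodd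

/-- A `J(T)`-component does not lie in a subgroup normalizing `J(T)`. -/
theorem jcomp_not_le {T K C : Subgroup G} (hT : IsPGroup 2 T) (hK : IsJComponent T K)
    (hCJ : C ≤ Subgroup.normalizer (thompsonSubgroupOf 2 T : Set G)) : ¬ K ≤ C := by
  intro hKC
  obtain ⟨hKodd, hKJ, hidx, -⟩ := hK
  have hJ2 := thompsonSubgroupOf_isPGroup hT
  set J : Subgroup G := Cfsg.thompsonSubgroupOf 2 T with hJdef
  have hKleJ : K ≤ J := by
    calc K = ⁅K, J⁆ := hKJ.symm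
      _ ≤ J := by
        rw [Subgroup.commutator_le]
        intro k hk j hj
        have h2 : k * j * k⁻¹ ∈ J := (Subgroup.mem_normalizer_iff.mp (hCJ (hKC hk)) j).mp hj
        rw [commutatorElement_def]
        exact J.mul_mem h2 (J.inv_mem hj)
  have hKbot : K = ⊥ := by
    rw [← le_bot_iff]
    calc K = Subgroup.closure {g : G | g ∈ K ∧ Odd (orderOf g)} := hKodd.symm
      _ ≤ ⊥ := by
        rw [Subgroup.closure_le]
        rintro g ⟨hg, hodd⟩
        obtain ⟨n, hn⟩ := (IsPGroup.iff_orderOf.mp hJ2) ⟨g, hKleJ hg⟩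
        have h1 : orderOf g = 2 ^ n := by
          rw [← hn]; exact (Subgroup.orderOf_coe (⟨g, hKleJ hg⟩ : J))
        have hn0 : n = 0 := by
          by_contra h0
          rw [h1] at hodd
          exact (Nat.not_even_iff_odd.mpr hodd) (Nat.even_pow.mpr ⟨even_two, h0⟩)
        rw [hn0, pow_zero, orderOf_eq_one_iff] at h1
        exact h1
  rw [hKbot, Subgroup.relIndex_bot_right] at hidx
  exact absurd hidx (by norm_num)

/-- The cube of an element of a `J(T)`-component `K` lies in `O₂(K)`. -/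
theorem jcomp_cube_mem {T K : Subgroup G} (hK : IsJComponent T K) :
    ∀ k ∈ K, k ^ 3 ∈ pCoreOf 2 K := by
  obtain ⟨-, -, hidx, -⟩ := hK
  intro k hk
  have hn : ((pCoreOf 2 K).subgroupOf K).Normal :=
    (Subgroup.normal_subgroupOf_iff_le_normalizer (Cfsg.Agent.Lib.Helper47.pCoreOf_le 2 K)).mpr
      (Cfsg.Agent.Lib.Helper47.le_normalizer_pCoreOf 2 K)
  have h1 := Subgroup.pow_index_mem ((pCoreOf 2 K).subgroupOf K) (⟨k, hk⟩ : K)
  have h2 : ((pCoreOf 2 K).subgroupOf K).index = 3 := hidx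
  rw [h2] at h1
  exact Subgroup.mem_subgroupOf.mp h1

/-- In a group generated by elements of odd order, every element has an odd power in a given
subgroup containing the commutator subgroup. -/
theorem odd_pow_mem_of_comm {K N : Subgroup G}
    (hKodd : Subgroup.closure {g : G | g ∈ K ∧ Odd (orderOf g)} = K)
    (hKN : K ≤ Subgroup.normalizer (N : Set G)) (hcomm : ⁅K, K⁆ ≤ N) :
    ∀ k ∈ K, ∃ m : ℕ, Odd m ∧ k ^ m ∈ N := by
  have hn : (N.subgroupOf K).Normal := Subgroup.normal_subgroupOf_of_le_normalizer hKN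
  have hc : ∀ x y : K, Commute (QuotientGroup.mk' (N.subgroupOf K) x)
      (QuotientGroup.mk' (N.subgroupOf K) y) := by
    intro x y
    show QuotientGroup.mk' (N.subgroupOf K) x * QuotientGroup.mk' (N.subgroupOf K) y =
      QuotientGroup.mk' (N.subgroupOf K) y * QuotientGroup.mk' (N.subgroupOf K) x
    rw [← map_mul, ← map_mul]
    apply QuotientGroup.eq.mpr
    rw [Subgroup.mem_subgroupOf]
    have h1 : ⁅(y : G)⁻¹, (x : G)⁻¹⁆ ∈ N :=
      hcomm (Subgroup.commutator_mem_commutator (K.inv_mem y.2) (K.inv_mem x.2))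
    have h2 : (((x * y)⁻¹ * (y * x) : K) : G) = ⁅(y : G)⁻¹, (x : G)⁻¹⁆ := by
      simp only [commutatorElement_def, Subgroup.coe_mul, Subgroup.coe_inv]; group
    rw [h2]; exact h1
  intro k hk
  have hk' : k ∈ Subgroup.closure {g : G | g ∈ K ∧ Odd (orderOf g)} := by rw [hKodd]; exact hk
  induction hk' using Subgroup.closure_induction with
  | mem x hx => exact ⟨orderOf x, hx.2, by rw [pow_orderOf_eq_one]; exact N.one_mem⟩
  | one => exact ⟨1, odd_one, by simp⟩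
  | mul x y hx hy ihx ihy =>
    have hxK : x ∈ K := by rw [← hKodd]; exact hx
    have hyK : y ∈ K := by rw [← hKodd]; exact hy
    obtain ⟨m, hm, hxm⟩ := ihx hxK
    obtain ⟨n, hn', hyn⟩ := ihy hyK
    refine ⟨m * n, hm.mul hn', ?_⟩
    have h1 : (QuotientGroup.mk' (N.subgroupOf K) ⟨x, hxK⟩) ^ m = 1 := by
      rw [← map_pow]
      exact (QuotientGroup.eq_one_iff _).mpr (Subgroup.mem_subgroupOf.mpr (by simpa using hxm))
    have h2 : (QuotientGroup.mk' (N.subgroupOf K) ⟨y, hyK⟩) ^ n = 1 := by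
      rw [← map_pow]
      exact (QuotientGroup.eq_one_iff _).mpr (Subgroup.mem_subgroupOf.mpr (by simpa using hyn))
    have h3 : (QuotientGroup.mk' (N.subgroupOf K) (⟨x, hxK⟩ * ⟨y, hyK⟩)) ^ (m * n) = 1 := by
      rw [map_mul, (hc _ _).mul_pow, pow_mul, h1, one_pow, mul_comm m n, pow_mul, h2, one_pow,
        one_mul]
    rw [← map_pow] at h3
    have h4 := (QuotientGroup.eq_one_iff _).mp h3
    rw [Subgroup.mem_subgroupOf] at h4
    simpa using h4
  | inv x hx ihx =>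
    have hxK : x ∈ K := by rw [← hKodd]; exact hx
    obtain ⟨m, hm, hxm⟩ := ihx hxK
    exact ⟨m, hm, by rw [inv_pow]; exact N.inv_mem hxm⟩

/-- `O₂(K) ≤ N` for a group `K` generated by elements of odd order with `K' ≤ N`. -/
theorem pCoreOf_le_of_comm {K N : Subgroup G}
    (hKodd : Subgroup.closure {g : G | g ∈ K ∧ Odd (orderOf g)} = K)
    (hKN : K ≤ Subgroup.normalizer (N : Set G)) (hcomm : ⁅K, K⁆ ≤ N) : pCoreOf 2 K ≤ N := by
  have : Fact (Nat.Prime 2) := ⟨Nat.prime_two⟩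
  intro q hq
  have hqK : q ∈ K := Cfsg.Agent.Lib.Helper47.pCoreOf_le 2 K hq
  obtain ⟨m, hm, hqm⟩ := odd_pow_mem_of_comm hKodd hKN hcomm q hqK
  obtain ⟨n, hn⟩ := (Cfsg.Agent.Lib.Helper47.pCoreOf_isPGroup 2 K) ⟨q, hq⟩
  have hqn : q ^ (2 ^ n) = 1 := congrArg Subtype.val hn
  have hdvd : orderOf q ∣ 2 ^ n := orderOf_dvd_of_pow_eq_one hqn
  have hcop : m.Coprime (orderOf q) := by
    have h1 : (2 ^ n).Coprime m := Nat.Coprime.pow_left n (Nat.coprime_two_left.mpr hm)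
    exact (Nat.Coprime.coprime_dvd_left hdvd h1).symm
  obtain ⟨r, hr⟩ := exists_pow_eq_self_of_coprime hcop
  rw [← hr]
  exact N.pow_mem hqm r

/-- `Ω₁(Z(X)) ≤ Z(X)`. -/
theorem omegaCenterOf_le (X : Subgroup G) :
    omegaCenterOf X ≤ X ⊓ Subgroup.centralizer (X : Set G) := by
  unfold omegaCenterOf omegaOne
  rw [Subgroup.closure_le]
  intro x hx
  exact hx.1

theorem omegaCenterOf_comm (X : Subgroup G) :
    ∀ a ∈ omegaCenterOf X, ∀ b ∈ omegaCenterOf X, a * b = b * a := by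
  intro a ha b hb
  have h1 := (Subgroup.mem_inf.mp (omegaCenterOf_le X ha)).2
  have h2 := (Subgroup.mem_inf.mp (omegaCenterOf_le X hb)).1
  exact (Subgroup.mem_centralizer_iff.mp h1 b h2).symm

theorem omegaCenterOf_sq (X : Subgroup G) : ∀ a ∈ omegaCenterOf X, a * a = 1 := by
  intro a ha
  have hc := omegaCenterOf_comm X
  have ha' := ha
  unfold omegaCenterOf omegaOne at ha'
  induction ha' using Subgroup.closure_induction with
  | mem x hx => rw [← pow_two]; exact hx.2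
  | one => simp
  | mul x y hx hy ihx ihy =>
    have hx' : x ∈ omegaCenterOf X := hx
    have hy' : y ∈ omegaCenterOf X := hy
    have e : x * y * (x * y) = (x * x) * (y * y) := by
      have := hc x hx' y hy'
      calc x * y * (x * y) = x * (y * x) * y := by group
        _ = x * (x * y) * y := by rw [this]
        _ = (x * x) * (y * y) := by group
    rw [e, ihx hx', ihy hy', mul_one]
  | inv x hx ihx =>
    have hx' : x ∈ omegaCenterOf X := hx
    have := ihx hx'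
    have e : x⁻¹ * x⁻¹ = (x * x)⁻¹ := by group
    rw [e, this, inv_one]

/-- `L` normalizes `C_L(V)` if it normalizes `V`. -/
theorem le_normalizer_inf_centralizer {L V : Subgroup G}
    (hLV : L ≤ Subgroup.normalizer (V : Set G)) :
    L ≤ Subgroup.normalizer ((L ⊓ Subgroup.centralizer (V : Set G) : Subgroup G) : Set G) := by
  have key : ∀ l ∈ L, ∀ x ∈ L ⊓ Subgroup.centralizer (V : Set G),
      l * x * l⁻¹ ∈ L ⊓ Subgroup.centralizer (V : Set G) := by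
    intro l hl x hx
    obtain ⟨hxL, hxC⟩ := Subgroup.mem_inf.mp hx
    refine Subgroup.mem_inf.mpr ⟨L.mul_mem (L.mul_mem hl hxL) (L.inv_mem hl), ?_⟩
    rw [Subgroup.mem_centralizer_iff]
    intro v hv
    have hv' : l⁻¹ * v * l ∈ V := by
      have := (Subgroup.mem_normalizer_iff.mp (hLV (L.inv_mem hl)) v).mp hv
      simpa using this
    have h1 := Subgroup.mem_centralizer_iff.mp hxC _ hv'
    calc v * (l * x * l⁻¹) = l * ((l⁻¹ * v * l) * x) * l⁻¹ := by group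
      _ = l * (x * (l⁻¹ * v * l)) * l⁻¹ := by rw [h1]
      _ = l * x * l⁻¹ * v := by group
  intro l hl
  apply mem_normalizer_of_conj_mem (key l hl)
  intro x hx
  have := key l⁻¹ (L.inv_mem hl) x hx
  simpa using this

end Components


section Main

variable {G : Type*} [Group G]

/-- `O₂(K) ≤ C_G(V)` for a `J(T)`-component `K ≤ L` with `K' ≤ C_L(V)`. -/
theorem jcomp_pCoreOf_le_centralizer {T L K V : Subgroup G} (hK : IsJComponent T K)
    (hKL : K ≤ L) (hLV : L ≤ Subgroup.normalizer (V : Set G))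
    (hAb : ⁅K, K⁆ ≤ L ⊓ Subgroup.centralizer (V : Set G)) :
    pCoreOf 2 K ≤ Subgroup.centralizer (V : Set G) :=
  (pCoreOf_le_of_comm hK.1 (hKL.trans (le_normalizer_inf_centralizer hLV)) hAb).trans inf_le_right

/-- The cube of an element of a `J(T)`-component `K ≤ L` acts trivially on `V`. -/
theorem jcomp_cube_conj {T L K V : Subgroup G} (hK : IsJComponent T K)
    (hKL : K ≤ L) (hLV : L ≤ Subgroup.normalizer (V : Set G))
    (hAb : ⁅K, K⁆ ≤ L ⊓ Subgroup.centralizer (V : Set G)) :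
    ∀ k ∈ K, ∀ v ∈ V, k * (k * (k * v * k⁻¹) * k⁻¹) * k⁻¹ = v := by
  intro k hk v hv
  have h1 := jcomp_pCoreOf_le_centralizer hK hKL hLV hAb (jcomp_cube_mem hK k hk)
  have h2 := Subgroup.mem_centralizer_iff.mp h1 v hv
  have e3 : k ^ 3 = k * k * k := by rw [pow_succ, pow_two]
  rw [e3] at h2
  calc k * (k * (k * v * k⁻¹) * k⁻¹) * k⁻¹ = (k * k * k * v) * (k * k * k)⁻¹ := by group
    _ = (v * (k * k * k)) * (k * k * k)⁻¹ := by rw [h2]
    _ = v := by group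

theorem conj_mem_of_le_normalizer {L V : Subgroup G} (hLV : L ≤ Subgroup.normalizer (V : Set G)) :
    ∀ l ∈ L, ∀ v ∈ V, l * v * l⁻¹ ∈ V :=
  fun _ hl v hv => (Subgroup.mem_normalizer_iff.mp (hLV hl) v).mp hv

/-- `[k, v] ∈ W_K` for `k` in a `J(T)`-component `K ≤ L` and `v ∈ V`. -/
theorem jcomp_comm_mem_wOf {T L K V : Subgroup G} (hK : IsJComponent T K)
    (hKL : K ≤ L) (hVc : ∀ a ∈ V, ∀ b ∈ V, a * b = b * a) (hV2 : ∀ a ∈ V, a * a = 1)
    (hLV : L ≤ Subgroup.normalizer (V : Set G)) (hVJ : V ≤ thompsonSubgroupOf 2 T)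
    (hAb : ⁅K, K⁆ ≤ L ⊓ Subgroup.centralizer (V : Set G)) :
    ∀ k ∈ K, ∀ v ∈ V, k * v * k⁻¹ * v⁻¹ ∈ wOf K := by
  have hKV := conj_mem_of_le_normalizer (hKL.trans hLV)
  have hQC := jcomp_pCoreOf_le_centralizer hK hKL hLV hAb
  have h3 := jcomp_cube_conj hK hKL hLV hAb
  -- (A1)
  have hA1 : ∀ k ∈ K, ∀ v ∈ V, ⁅k, v⁆ ∈ V ⊓ K := by
    intro k hk v hv
    refine Subgroup.mem_inf.mpr ⟨?_, ?_⟩
    · rw [commutatorElement_def]
      exact V.mul_mem (hKV k hk v hv) (V.inv_mem hv)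
    · have : ⁅k, v⁆ ∈ ⁅K, thompsonSubgroupOf 2 T⁆ := Subgroup.commutator_mem_commutator hk (hVJ hv)
      rw [hK.2.1] at this
      exact this
  -- (A2), (A3)
  have hA3 : V ⊓ K ≤ omegaCenterOf (pCoreOf 2 K) := by
    have hA2 : V ⊓ K ≤ pCoreOf 2 K := by
      apply le_pCoreOf_of_normal (p := 2) _ inf_le_right
      · intro k hk
        have key : ∀ k ∈ K, ∀ x ∈ V ⊓ K, k * x * k⁻¹ ∈ V ⊓ K := by
          intro k hk x hx
          obtain ⟨hxV, hxK⟩ := Subgroup.mem_inf.mp hx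
          exact Subgroup.mem_inf.mpr ⟨hKV k hk x hxV, K.mul_mem (K.mul_mem hk hxK) (K.inv_mem hk)⟩
        apply mem_normalizer_of_conj_mem (key k hk)
        intro x hx
        have := key k⁻¹ (K.inv_mem hk) x hx
        simpa using this
      · intro g
        refine ⟨1, Subtype.ext ?_⟩
        have := hV2 g.1 (Subgroup.mem_inf.mp g.2).1
        simpa [pow_two] using this
    intro a ha
    obtain ⟨haV, haK⟩ := Subgroup.mem_inf.mp ha
    unfold omegaCenterOf omegaOne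
    apply Subgroup.subset_closure
    refine ⟨Subgroup.mem_inf.mpr ⟨hA2 ha, ?_⟩, ?_⟩
    · rw [Subgroup.mem_centralizer_iff]
      intro q hq
      exact (Subgroup.mem_centralizer_iff.mp (hQC hq) a haV).symm
    · rw [pow_two]; exact hV2 a haV
  intro k hk v hv
  have e : k * v * k⁻¹ * v⁻¹ = ⁅k, ⁅k * v * k⁻¹, k⁆⁆ := by
    rw [← comm_eq_comm_comm hVc hV2 (hKV k hk) (h3 k hk) hv, commutatorElement_def]
  rw [e]
  have hu : ⁅k * v * k⁻¹, k⁆ ∈ omegaCenterOf (pCoreOf 2 K) := by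
    apply hA3
    have := hA1 k hk (k * v * k⁻¹) (hKV k hk v hv)
    rw [← commutatorElement_inv]
    exact Subgroup.inv_mem _ this
  unfold wOf
  rw [Subgroup.commutator_comm]
  exact Subgroup.commutator_mem_commutator hk hu

/-- A `J(T)`-component of `L` moves some element of `V` (when `C_L(V)` normalizes `J(T)`). -/
theorem jcomp_exists_moved {T L K V : Subgroup G} (hT : IsPGroup 2 T) (hK : IsJComponent T K)
    (hKL : K ≤ L)
    (hCJ : L ⊓ Subgroup.centralizer (V : Set G) ≤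
      Subgroup.normalizer (thompsonSubgroupOf 2 T : Set G)) :
    ∃ k ∈ K, ∃ v ∈ V, k * v * k⁻¹ ≠ v := by
  by_contra hcon
  simp only [not_exists, not_and, not_not] at hcon
  apply jcomp_not_le hT hK hCJ
  intro k hk
  refine Subgroup.mem_inf.mpr ⟨hKL hk, ?_⟩
  rw [Subgroup.mem_centralizer_iff]
  intro v hv
  have := hcon k hk v hv
  calc v * k = (k * v * k⁻¹) * k := by rw [this]
    _ = k * v := by group

/-- `W_K = [V, K]` for a `J(T)`-component `K ≤ L` (statement (a) of the component analysis). -/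
theorem jcomp_wOf_eq_comm [Finite G] {T L K V : Subgroup G} (hT : IsPGroup 2 T)
    (hK : IsJComponent T K)
    (hKL : K ≤ L) (hVc : ∀ a ∈ V, ∀ b ∈ V, a * b = b * a) (hV2 : ∀ a ∈ V, a * a = 1)
    (hLV : L ≤ Subgroup.normalizer (V : Set G)) (hVJ : V ≤ thompsonSubgroupOf 2 T)
    (hCJ : L ⊓ Subgroup.centralizer (V : Set G) ≤
      Subgroup.normalizer (thompsonSubgroupOf 2 T : Set G))
    (hAb : ⁅K, K⁆ ≤ L ⊓ Subgroup.centralizer (V : Set G)) :
    wOf K = ⁅V, K⁆ := by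
  have hKV := conj_mem_of_le_normalizer (hKL.trans hLV)
  have hW := jcomp_comm_mem_wOf hK hKL hVc hV2 hLV hVJ hAb
  have h3 := jcomp_cube_conj hK hKL hLV hAb
  have hle : ⁅V, K⁆ ≤ wOf K := by
    rw [Subgroup.commutator_le]
    intro v hv k hk
    rw [← commutatorElement_inv, commutatorElement_def]
    exact Subgroup.inv_mem _ (hW k hk v hv)
  obtain ⟨k, hk, v, hv, hne⟩ := jcomp_exists_moved hT hK hKL hCJ
  symm
  have hy : k * v * k⁻¹ * v⁻¹ ∈ ⁅V, K⁆ := by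
    rw [Subgroup.commutator_comm]
    have := Subgroup.commutator_mem_commutator hk hv
    rwa [commutatorElement_def] at this
  have hy' : k * (k * v * k⁻¹ * v⁻¹) * k⁻¹ ∈ ⁅V, K⁆ := by
    rw [Subgroup.commutator_comm]
    have := Subgroup.commutator_mem_commutator hk (hKV k hk v hv)
    rw [commutatorElement_def] at this
    have e : k * (k * v * k⁻¹ * v⁻¹) * k⁻¹ = k * (k * v * k⁻¹) * k⁻¹ * (k * v * k⁻¹)⁻¹ := by group
    rw [e]; exact this
  have hy1 : k * v * k⁻¹ * v⁻¹ ≠ 1 := by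
    intro h
    apply hne
    calc k * v * k⁻¹ = (k * v * k⁻¹ * v⁻¹) * v := by group
      _ = v := by rw [h, one_mul]
  have hy'1 : k * (k * v * k⁻¹ * v⁻¹) * k⁻¹ ≠ 1 := by
    intro h
    apply hy1
    calc k * v * k⁻¹ * v⁻¹ = k⁻¹ * (k * (k * v * k⁻¹ * v⁻¹) * k⁻¹) * k := by group
      _ = 1 := by rw [h]; group
  have hyy' : k * v * k⁻¹ * v⁻¹ ≠ k * (k * v * k⁻¹ * v⁻¹) * k⁻¹ := by
    intro h
    exact hne (conj_fix_comm_eq hVc hV2 (hKV k hk) (h3 k hk) hv h.symm)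
  exact eq_of_three hK.2.2.2.2.1 hK.2.2.2.2.2 hle hy hy' hy1 hy'1 hyy'

end Main


section Final

variable {G : Type*} [Group G]

/-- The abstract form of the package: two distinct `J(T)`-components `K₁, K₂` of `L`
(acting on an elementary abelian normal 2-subgroup `V ≤ J(T)` of `L` with `C_L(V) ≤ N(J(T))`,
`C_L(V) ≤ N(K_i)`, and `[K_i, K_j] ≤ C_L(V)`) centralize each other's four-groups. -/
theorem jcomp_centralize_of_module [Finite G] {T L K₁ K₂ V : Subgroup G} (hT : IsPGroup 2 T)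
    (hK₁ : IsJComponent T K₁) (hK₂ : IsJComponent T K₂) (hK₁L : K₁ ≤ L) (hK₂L : K₂ ≤ L)
    (hVc : ∀ a ∈ V, ∀ b ∈ V, a * b = b * a) (hV2 : ∀ a ∈ V, a * a = 1)
    (hLV : L ≤ Subgroup.normalizer (V : Set G)) (hVJ : V ≤ thompsonSubgroupOf 2 T)
    (hCJ : L ⊓ Subgroup.centralizer (V : Set G) ≤
      Subgroup.normalizer (thompsonSubgroupOf 2 T : Set G))
    (hCK₁ : L ⊓ Subgroup.centralizer (V : Set G) ≤ Subgroup.normalizer (K₁ : Set G))
    (hCK₂ : L ⊓ Subgroup.centralizer (V : Set G) ≤ Subgroup.normalizer (K₂ : Set G))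
    (hAb₁₁ : ⁅K₁, K₁⁆ ≤ L ⊓ Subgroup.centralizer (V : Set G))
    (hAb₂₂ : ⁅K₂, K₂⁆ ≤ L ⊓ Subgroup.centralizer (V : Set G))
    (hAb₂₁ : ⁅K₂, K₁⁆ ≤ L ⊓ Subgroup.centralizer (V : Set G))
    (hne : K₁ ≠ K₂) : K₂ ≤ Subgroup.centralizer (wOf K₁ : Set G) := by
  have hLVc := conj_mem_of_le_normalizer hLV
  have hK₁V := conj_mem_of_le_normalizer (hK₁L.trans hLV)
  have hK₂V := conj_mem_of_le_normalizer (hK₂L.trans hLV)
  have hW₁ := jcomp_wOf_eq_comm hT hK₁ hK₁L hVc hV2 hLV hVJ hCJ hAb₁₁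
  have hcW₁ := jcomp_comm_mem_wOf hK₁ hK₁L hVc hV2 hLV hVJ hAb₁₁
  have hcW₂ := jcomp_comm_mem_wOf hK₂ hK₂L hVc hV2 hLV hVJ hAb₂₂
  have h3₁ := jcomp_cube_conj hK₁ hK₁L hLV hAb₁₁
  have h3₂ := jcomp_cube_conj hK₂ hK₂L hLV hAb₂₂
  have hW₁V : wOf K₁ ≤ V := by
    rw [hW₁, Subgroup.commutator_le]
    intro v hv k hk
    rw [commutatorElement_def]
    have h1 : k * v⁻¹ * k⁻¹ ∈ V := hK₁V k hk _ (V.inv_mem hv)
    have h2 : v * k * v⁻¹ * k⁻¹ = v * (k * v⁻¹ * k⁻¹) := by group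
    rw [h2]; exact V.mul_mem hv h1
  -- the commutator of `g ∈ K₂` and `k ∈ K₁` centralizes `V`
  have hgk : ∀ g ∈ K₂, ∀ k ∈ K₁, g * k * g⁻¹ * k⁻¹ ∈ Subgroup.centralizer (V : Set G) := by
    intro g hg k hk
    have := hAb₂₁ (Subgroup.commutator_mem_commutator hg hk)
    rw [commutatorElement_def] at this
    exact (Subgroup.mem_inf.mp this).2
  -- `K₂` normalizes `W₁`
  have hK₂W₁ : ∀ g ∈ K₂, ∀ w ∈ wOf K₁, g * w * g⁻¹ ∈ wOf K₁ := by
    intro g hg w hw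
    rw [hW₁] at hw ⊢
    exact conj_comm_mem (hK₂V g hg) hK₁V (hgk g hg) w hw
  by_contra hnot
  obtain ⟨g, hg, hgn⟩ := SetLike.not_le_iff_exists.mp hnot
  rw [Subgroup.mem_centralizer_iff] at hgn
  simp only [not_forall] at hgn
  obtain ⟨w, hw, hwg⟩ := hgn
  have hw : w ∈ wOf K₁ := hw
  have hwV : w ∈ V := hW₁V hw
  -- W₁ = W₂
  have hWW : wOf K₁ = wOf K₂ := by
    have hgw : g * w * g⁻¹ ∈ wOf K₁ := hK₂W₁ g hg w hw
    have hy1 : g * w * g⁻¹ * w⁻¹ ≠ 1 := by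
      intro h
      apply hwg
      calc w * g = ((g * w * g⁻¹ * w⁻¹)⁻¹ * g) * w := by group
        _ = g * w := by rw [h]; group
    have hyW₁ : g * w * g⁻¹ * w⁻¹ ∈ wOf K₁ := Subgroup.mul_mem _ hgw (Subgroup.inv_mem _ hw)
    have hyW₂ : g * w * g⁻¹ * w⁻¹ ∈ wOf K₂ := hcW₂ g hg w hwV
    have hy'W₁ : g * (g * w * g⁻¹ * w⁻¹) * g⁻¹ ∈ wOf K₁ := hK₂W₁ g hg _ hyW₁
    have hy'W₂ : g * (g * w * g⁻¹ * w⁻¹) * g⁻¹ ∈ wOf K₂ := by
      have := hcW₂ g hg (g * w * g⁻¹) (hK₂V g hg w hwV)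
      have e : g * (g * w * g⁻¹ * w⁻¹) * g⁻¹ = g * (g * w * g⁻¹) * g⁻¹ * (g * w * g⁻¹)⁻¹ := by group
      rw [e]; exact this
    have hy'1 : g * (g * w * g⁻¹ * w⁻¹) * g⁻¹ ≠ 1 := by
      intro h
      apply hy1
      calc g * w * g⁻¹ * w⁻¹ = g⁻¹ * (g * (g * w * g⁻¹ * w⁻¹) * g⁻¹) * g := by group
        _ = 1 := by rw [h]; group
    have hyy' : g * w * g⁻¹ * w⁻¹ ≠ g * (g * w * g⁻¹ * w⁻¹) * g⁻¹ := by
      intro h
      have h5 := conj_fix_comm_eq hVc hV2 (hK₂V g hg) (h3₂ g hg) hwV h.symm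
      apply hy1
      rw [h5]; group
    have e1 : wOf K₁ ⊓ wOf K₂ = wOf K₁ :=
      eq_of_three hK₁.2.2.2.2.1 hK₁.2.2.2.2.2 inf_le_left (Subgroup.mem_inf.mpr ⟨hyW₁, hyW₂⟩)
        (Subgroup.mem_inf.mpr ⟨hy'W₁, hy'W₂⟩) hy1 hy'1 hyy'
    have e2 : wOf K₁ ⊓ wOf K₂ = wOf K₂ :=
      eq_of_three hK₂.2.2.2.2.1 hK₂.2.2.2.2.2 inf_le_right (Subgroup.mem_inf.mpr ⟨hyW₁, hyW₂⟩)
        (Subgroup.mem_inf.mpr ⟨hy'W₁, hy'W₂⟩) hy1 hy'1 hyy'
    exact e1.symm.trans e2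
  -- the dichotomy
  have key : ∀ k ∈ K₁, ∀ g' ∈ K₂, (∃ v ∈ V, k * v * k⁻¹ ≠ v) → (∃ v ∈ V, g' * v * g'⁻¹ ≠ v) →
      (k⁻¹ * g' ∈ L ⊓ Subgroup.centralizer (V : Set G) ∨
        g' * k ∈ L ⊓ Subgroup.centralizer (V : Set G)) := by
    intro k hk g' hg' hk1 hg1
    have hcomm : ∀ v ∈ V, g' * (k * v * k⁻¹) * g'⁻¹ = k * (g' * v * g'⁻¹) * k⁻¹ := by
      intro v hv
      have hc := hgk g' hg' k hk
      have hz : k * (g' * v * g'⁻¹) * k⁻¹ ∈ V := hK₁V k hk _ (hK₂V g' hg' v hv)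
      have c1 := Subgroup.mem_centralizer_iff.mp hc _ hz
      calc g' * (k * v * k⁻¹) * g'⁻¹
          = (g' * k * g'⁻¹ * k⁻¹) * (k * (g' * v * g'⁻¹) * k⁻¹) * (g' * k * g'⁻¹ * k⁻¹)⁻¹ := by group
        _ = (k * (g' * v * g'⁻¹) * k⁻¹) * (g' * k * g'⁻¹ * k⁻¹) * (g' * k * g'⁻¹ * k⁻¹)⁻¹ := by
          rw [c1]
        _ = k * (g' * v * g'⁻¹) * k⁻¹ := by group
    have hg'W : ∀ v ∈ V, g' * v * g'⁻¹ * v⁻¹ ∈ wOf K₁ := by
      intro v hv; rw [hWW]; exact hcW₂ g' hg' v hv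
    rcases conj_dichotomy hVc hV2 (four_of_card hK₁.2.2.2.2.1) (hK₁V k hk) (hK₂V g' hg')
      (h3₁ k hk) (h3₂ g' hg') hcomm (hcW₁ k hk) hg'W hk1 hg1 with h | h
    · left
      refine Subgroup.mem_inf.mpr ⟨L.mul_mem (L.inv_mem (hK₁L hk)) (hK₂L hg'), ?_⟩
      rw [Subgroup.mem_centralizer_iff]
      intro v hv
      have := h v hv
      calc v * (k⁻¹ * g') = k⁻¹ * (k * v * k⁻¹) * g' := by group
        _ = k⁻¹ * (g' * v * g'⁻¹) * g' := by rw [this]
        _ = k⁻¹ * g' * v := by group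
    · right
      refine Subgroup.mem_inf.mpr ⟨L.mul_mem (hK₂L hg') (hK₁L hk), ?_⟩
      rw [Subgroup.mem_centralizer_iff]
      intro v hv
      have := h v hv
      calc v * (g' * k) = (g' * (k * v * k⁻¹) * g'⁻¹) * (g' * k) := by rw [this]
        _ = g' * k * v := by group
  obtain ⟨k0, hk0, hk0n⟩ := jcomp_exists_moved hT hK₁ hK₁L hCJ
  obtain ⟨g0, hg0, hg0n⟩ := jcomp_exists_moved hT hK₂ hK₂L hCJ
  have hfix : ∀ x ∈ L, (¬ ∃ v ∈ V, x * v * x⁻¹ ≠ v) → x ∈ L ⊓ Subgroup.centralizer (V : Set G) := by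
    intro x hx hc
    simp only [not_exists, not_and, not_not] at hc
    refine Subgroup.mem_inf.mpr ⟨hx, ?_⟩
    rw [Subgroup.mem_centralizer_iff]
    intro v hv
    have := hc v hv
    calc v * x = (x * v * x⁻¹) * x := by rw [this]
      _ = x * v := by group
  have h21 : K₂ ≤ K₁ ⊔ (L ⊓ Subgroup.centralizer (V : Set G)) := by
    intro g' hg'
    by_cases hc : ∃ v ∈ V, g' * v * g'⁻¹ ≠ v
    · rcases key k0 hk0 g' hg' hk0n hc with h | h
      · have e : g' = k0 * (k0⁻¹ * g') := by group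
        rw [e]
        exact Subgroup.mul_mem _ (Subgroup.mem_sup_left hk0) (Subgroup.mem_sup_right h)
      · have e : g' = (g' * k0) * k0⁻¹ := by group
        rw [e]
        exact Subgroup.mul_mem _ (Subgroup.mem_sup_right h)
          (Subgroup.mem_sup_left (K₁.inv_mem hk0))
    · exact Subgroup.mem_sup_right (hfix g' (hK₂L hg') hc)
  have h12 : K₁ ≤ K₂ ⊔ (L ⊓ Subgroup.centralizer (V : Set G)) := by
    intro k hk
    by_cases hc : ∃ v ∈ V, k * v * k⁻¹ ≠ v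
    · rcases key k hk g0 hg0 hc hg0n with h | h
      · have e : k = g0 * (k⁻¹ * g0)⁻¹ := by group
        rw [e]
        exact Subgroup.mul_mem _ (Subgroup.mem_sup_left hg0)
          (Subgroup.mem_sup_right (Subgroup.inv_mem _ h))
      · have e : k = g0⁻¹ * (g0 * k) := by group
        rw [e]
        exact Subgroup.mul_mem _ (Subgroup.mem_sup_left (K₂.inv_mem hg0))
          (Subgroup.mem_sup_right h)
    · exact Subgroup.mem_sup_right (hfix k (hK₁L hk) hc)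
  exact hne (le_antisymm (jcomp_le_of_le_sup hT hK₂ hK₁ hCJ hCK₂ h12)
    (jcomp_le_of_le_sup hT hK₁ hK₂ hCJ hCK₁ h21))

/-- **hComm core** of the KS12 project: for `L ∈ jOvergroups T`, `V = Ω₁(Z(O₂(L)))` and
`C = C_L(V)`, if `C ≤ N(J(T))`, `V ≤ J(T)` and `[K₁, K₂] ≤ C` for all `J(T)`-components of `L`,
then any two distinct `J(T)`-components `K₁, K₂ ≤ L` satisfy `[W_{K₁}, K₂] = 1`. -/
theorem hComm_core [Finite G] (hL : Cfsg.IsCharacteristicTwoType G)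
    (hN : ∀ N : Subgroup G, Cfsg.IsTwoLocal N → Group.IsSolvable ↥N)
    (hZ : ∀ S : Sylow 2 G, Subgroup.centralizer (Cfsg.omegaCenterOf (S : Subgroup G) : Set G) ≤
      Subgroup.normalizer ((S : Subgroup G) : Set G))
    (T L : Subgroup G) (hT : IsPGroup 2 T) (hT1 : T ≠ ⊥) (hLT : L ∈ jOvergroups T)
    (hCJ : L ⊓ Subgroup.centralizer (omegaCenterOf (pCoreOf 2 L) : Set G) ≤
      Subgroup.normalizer (thompsonSubgroupOf 2 T : Set G))
    (hVJ : omegaCenterOf (pCoreOf 2 L) ≤ thompsonSubgroupOf 2 T)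
    (hAb : ∀ K₁ K₂ : Subgroup G, IsJComponent T K₁ → IsJComponent T K₂ → K₁ ≤ L → K₂ ≤ L →
      ⁅K₁, K₂⁆ ≤ L ⊓ Subgroup.centralizer (omegaCenterOf (pCoreOf 2 L) : Set G)) :
    ∀ K₁ K₂ : Subgroup G, IsJComponent T K₁ → IsJComponent T K₂ → K₁ ≤ L → K₂ ≤ L → K₁ ≠ K₂ →
      K₂ ≤ Subgroup.centralizer (wOf K₁ : Set G) := by
  intro K₁ K₂ hK₁ hK₂ hK₁L hK₂L hne
  have hLV : L ≤ Subgroup.normalizer (omegaCenterOf (pCoreOf 2 L) : Set G) :=
    (Cfsg.Agent.Lib.Helper47.le_normalizer_pCoreOf 2 L).trans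
      (normalizer_le_normalizer_omegaCenterOf (pCoreOf 2 L))
  have hJL : thompsonSubgroupOf 2 T ≤ L :=
    (Cfsg.Agent.Lib.Helper11.thompsonSubgroupOf_le 2 T).trans hLT.1.1
  have hLC := le_normalizer_inf_centralizer hLV
  have hCK : ∀ K : Subgroup G, IsJComponent T K → K ≤ L →
      L ⊓ Subgroup.centralizer (omegaCenterOf (pCoreOf 2 L) : Set G) ≤
        Subgroup.normalizer (K : Set G) := by
    intro K hK hKL
    exact Cfsg.Agent.S2941.result hL hN hZ T hT hT1 K hK _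
      (sup_le (hKL.trans hLC) (hJL.trans hLC)) hCJ
  exact jcomp_centralize_of_module hT hK₁ hK₂ hK₁L hK₂L (omegaCenterOf_comm _) (omegaCenterOf_sq _)
    hLV hVJ hCJ (hCK K₁ hK₁ hK₁L) (hCK K₂ hK₂ hK₂L) (hAb K₁ K₁ hK₁ hK₁ hK₁L hK₁L)
    (hAb K₂ K₂ hK₂ hK₂ hK₂L hK₂L) (hAb K₂ K₁ hK₂ hK₁ hK₂L hK₁L) hne

end Final

end Cfsg.Agent.Lib.Helper85.KS12
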